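import Cfsg.Agent.H789.CdSn.Kill
import Cfsg.Agent.H603.FD.KillMain

/-!
# The criterion of the principal block (helper789, for S4906)

`p` divides `|G|` exactly once, `e = |N(P) : C(P)|`.  The nonexceptional characters of the principal block have signed
degrees `1` mod `p`, there are `e` of them, the sum of the signed degrees is the signed degree of the exceptional
characters, which is `e` mod `p`.

* `blkChk p e a L` : there is no solution with degrees in `{1} ∪ L` and at most `a` linear characters;
* `DegIn.false_of_blk` : the criterion for a Sylow subgroup of order `p`;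
* `DegIn.false_of_blk2` : the criterion for `|G : M| ≤ 2`, with self-centralizing Sylow `p`-subgroup of `M`.
-/

set_option autoImplicit false
set_option linter.unusedSectionVars false

open Cfsg

namespace Cfsg.Agent.H789.CdSn

open Cfsg.Agent.SmallSimple.DegreeData

universe u

/-- there is no sum `s + z₁ + ... + zₖ ∈ Tg` with `zᵢ ∈ C` -/
def srch (Tg : List ℤ) : List ℤ → ℕ → ℤ → Bool
  | [], k, s => !(Nat.beq k 0) || !(Tg.contains s)
  | z :: C, k, s => (List.range (k + 1)).all fun i => srch Tg C (k - i) (s + i * z)

theorem srch_spec {Tg : List ℤ} : ∀ (C Z : List ℤ) (s : ℤ), (∀ z ∈ Z, z ∈ C) → srch Tg C Z.length s = true →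
    s + Z.sum ∉ Tg := by
  intro C
  induction C with
  | nil =>
    intro Z s hZ h
    have : Z = [] := by
      rw [List.eq_nil_iff_forall_not_mem]
      intro z hz
      exact absurd (hZ z hz) (by simp)
    subst this
    simpa [srch] using h
  | cons c C ih =>
    intro Z s hZ h
    rw [srch, List.all_eq_true] at h
    have h1 : Z.length = Z.count c + (Z.filter fun z => decide (z ≠ c)).length := by
      have := List.length_eq_countP_add_countP (p := fun z => decide (z = c)) (l := Z)
      rw [this, List.count_eq_countP, ← List.countP_eq_length_filter]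
      congr 1
      apply List.countP_congr; intro z _; simp
    have h2 := h (Z.count c) (by rw [List.mem_range]; omega)
    have h3 : Z.length - Z.count c = (Z.filter fun z => decide (z ≠ c)).length := by omega
    rw [h3] at h2
    have h4 := ih (Z.filter fun z => decide (z ≠ c)) _ (fun z hz => by
      rw [List.mem_filter] at hz
      have h5 := hZ z hz.1
      have h6 : z ≠ c := by simpa using hz.2
      exact (List.mem_cons.1 h5).resolve_left h6) h2
    have h5 : Z.sum = Z.count c * c + (Z.filter fun z => decide (z ≠ c)).sum := by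
      clear * -
      induction Z with
      | nil => simp
      | cons a Z ih =>
        by_cases ha : a = c
        · subst ha
          rw [List.sum_cons, ih, List.count_cons_self, List.filter_cons_of_neg (by simp)]
          push_cast
          ring
        · rw [List.sum_cons, ih, List.count_cons_of_ne ha, List.filter_cons_of_pos (by simpa using ha), List.sum_cons]
          ring
    rw [h5, ← add_assoc]
    exact h4

/-- the possible signed degrees of the exceptional characters -/
def tgs (p e : ℕ) (L : List ℕ) : List ℤ :=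
  (1 :: L).flatMap fun f => (if Nat.beq (Nat.mod f p) e then [(f : ℤ)] else []) ++
    (if Nat.beq (Nat.mod (f + e) p) 0 then [-(f : ℤ)] else [])

/-- the possible signed degrees of the nonexceptional nonlinear characters -/
def sgs (p : ℕ) (L : List ℕ) : List ℤ :=
  L.flatMap fun f => (if Nat.beq (Nat.mod f p) 1 then [(f : ℤ)] else []) ++
    (if Nat.beq (Nat.mod (f + 1) p) 0 then [-(f : ℤ)] else [])

/-- there is no principal block with `e` nonexceptional characters, at most `a` linear ones -/
def blkChk (p e a : ℕ) (L : List ℕ) : Bool :=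
  (tgs p e L).isEmpty || (List.range a).all fun i => Nat.ble e i || srch (tgs p e L) (sgs p L) (e - (i + 1)) ((i : ℤ) + 1)

section

variable {G : Type u} [Group G] [Finite G] {p : ℕ} [hp : Fact p.Prime]

/-- **the criterion of the principal block** -/
theorem DegIn.false_of_blk {L : List ℕ} (hL : DegIn G L) (h2 : p ≠ 2) (P : Sylow p G) (hP : Nat.card P = p) {e a : ℕ}
    (he : (Subgroup.centralizer ((P : Subgroup G) : Set G)).relIndex
      (Subgroup.normalizer ((P : Subgroup G) : Set G)) = e)
    (ha : (commutator G).index ≤ a) (h : blkChk p e a L = true) : False := by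
  classical
  have hpp := hp.out
  have hp2 : 2 < p := lt_of_le_of_ne hpp.two_le (Ne.symm h2)
  obtain ⟨M, hM⟩ := Blocks.ExistsModular.exists_isPModular hpp
  have hcyc : IsCyclic P := isCyclic_of_prime_card hP
  obtain ⟨hep, -⟩ := H638.FD.Blk.struct₀ hM P hcyc (k := 1) le_rfl (by rw [pow_one]; exact hP) he
  obtain ⟨t, ht⟩ := hep
  obtain ⟨D⟩ := exists_blockData p h2 M hM P hP e t he ht.symm
  have hfin := Characters.Core.finite_irr (G := G)
  have hft := Fintype.ofFinite (IrrCharacter G)
  have he0 : 0 < e := by
    rcases Nat.eq_zero_or_pos e with h0 | h0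
    · rw [h0, zero_mul] at ht; omega
    · exact h0
  have hep : e < p := by
    have := Nat.le_of_dvd (by omega) (Dvd.intro _ ht.symm)
    omega
  -- the exceptional degree
  have hdexc : D.dexc ∈ tgs p e L := by
    have h3 := D.dexc_modEq hP ht.symm
    obtain ⟨Θ, hΘ⟩ := D.exists_X ht.symm
    have h4 : D.f ∈ 1 :: L := by
      have h5 := hL D.f ⟨Θ, D.deg_X Θ hΘ⟩
      rw [List.mem_cons]; exact h5
    rw [tgs, List.mem_flatMap]
    refine ⟨D.f, h4, ?_⟩
    rw [List.mem_append]
    rcases D.d_mem with h5 | h5
    · left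
      have h6 : D.dexc = D.f := by rw [BlockData.dexc, h5, one_mul]
      rw [h6] at h3 ⊢
      have h7 : D.f % p = e := by
        have h8 : D.f ≡ e [MOD p] := (Int.natCast_modEq_iff).1 h3
        have h9 : D.f % p = e % p := h8
        rw [h9, Nat.mod_eq_of_lt hep]
      rw [if_pos (by rw [Nat.beq_eq]; exact h7)]
      simp
    · right
      have h6 : D.dexc = -(D.f : ℤ) := by rw [BlockData.dexc, h5]; ring
      rw [h6] at h3 ⊢
      have h7 : (D.f + e) % p = 0 := by
        apply Nat.mod_eq_zero_of_dvd
        have h8 := h3.dvd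
        have h9 : ((D.f + e : ℕ) : ℤ) = (e : ℤ) - -(D.f : ℤ) := by push_cast; ring
        exact Int.natCast_dvd_natCast.1 (by rw [h9]; exact h8)
      rw [if_pos (by rw [Nat.beq_eq]; exact h7)]
      simp
  rw [blkChk, Bool.or_eq_true, List.isEmpty_iff, List.all_eq_true] at h
  rcases h with h | h
  · rw [h] at hdexc
    exact absurd hdexc (by simp)
  -- the linear characters
  set i := D.degs.count 1 with hi
  have hlin : i + 1 ≤ a := by
    refine le_trans ?_ ha
    rw [← H638.FD.Blk.card_linear]
    have h3 : ((D.one :: D.l.filter fun χ => decide (D.sd χ = 1)).toFinset).card = i + 1 := by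
      rw [List.toFinset_card_of_nodup, List.length_cons, hi, BlockData.degs, List.count_eq_countP, List.countP_map,
        ← List.countP_eq_length_filter]
      · congr 1
      · have h4 := D.nodup
        rw [List.nodup_cons] at h4 ⊢
        exact ⟨fun h => h4.1 (List.mem_of_mem_filter h), h4.2.filter _⟩
    rw [← h3]
    apply Finset.card_le_card
    intro χ hχ
    rw [List.mem_toFinset, List.mem_cons] at hχ
    rw [Finset.mem_filter]
    refine ⟨Finset.mem_univ _, ?_⟩
    rcases hχ with rfl | hχ
    · apply Blocks.Knorr.charDegree_of_natCast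
      rw [D.coe_one]; simp
    · rw [List.mem_filter] at hχ
      have h4 := D.natAbs_sd (List.mem_cons_of_mem _ hχ.1)
      have h5 : D.sd χ = 1 := by simpa using hχ.2
      rw [h5] at h4
      exact h4.symm
  have hlen := D.length_degs
  have hcount : i ≤ D.degs.length := List.count_le_length
  have h3 := h i (by rw [List.mem_range]; omega)
  rw [Bool.or_eq_true, Nat.ble_eq] at h3
  rcases h3 with h3 | h3
  · omega
  -- the other characters
  set Z := D.degs.filter fun z => decide (z ≠ 1) with hZ
  have hZl : Z.length = e - (i + 1) := by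
    have h4 := List.length_eq_countP_add_countP (p := fun z => decide (z = 1)) (l := D.degs)
    have h5 : D.degs.countP (fun z => decide (z = 1)) = i := by
      rw [hi, List.count_eq_countP]; apply List.countP_congr; intro z _; simp
    have h6 : D.degs.countP (fun z => decide ¬(decide (z = 1) = true)) = Z.length := by
      rw [hZ, ← List.countP_eq_length_filter]; apply List.countP_congr; intro z _; simp
    rw [h5, h6] at h4
    omega
  have hsum : D.degs.sum = i + Z.sum := by
    have key : ∀ W : List ℤ, W.sum = W.count 1 + (W.filter fun z => decide (z ≠ 1)).sum := by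
      intro W
      induction W with
      | nil => simp
      | cons a W ih =>
        by_cases ha : a = 1
        · subst ha
          rw [List.sum_cons, ih, List.count_cons_self, List.filter_cons_of_neg (by simp)]
          push_cast
          ring
        · rw [List.sum_cons, ih, List.count_cons_of_ne ha, List.filter_cons_of_pos (by simpa using ha), List.sum_cons]
          ring
    exact key _
  have hmem : ∀ z ∈ Z, z ∈ sgs p L := by
    intro z hz
    rw [hZ, List.mem_filter] at hz
    have hz1 : z ≠ 1 := by simpa using hz.2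
    obtain ⟨χ, hχ, rfl⟩ := List.mem_map.1 hz.1
    have hχ' : χ ∈ D.one :: D.l := List.mem_cons_of_mem _ hχ
    have h4 := D.sd_modEq hP hχ'
    have h5 := D.natAbs_sd hχ'
    have h6 := hL _ ⟨χ, rfl⟩
    rw [← h5] at h6
    obtain ⟨f, hf⟩ : ∃ f, f = (D.sd χ).natAbs := ⟨_, rfl⟩
    rw [← hf] at h6
    have h7 : D.sd χ = f ∨ D.sd χ = -(f : ℤ) := by rw [hf]; exact Int.natAbs_eq _
    rcases h7 with h7 | h7
    · rw [h7] at h4 hz1 ⊢
      have h8 : f ∈ L := h6.resolve_left (fun h => hz1 (by rw [h]; rfl))
      rw [sgs, List.mem_flatMap]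
      refine ⟨f, h8, ?_⟩
      have h9 : f % p = 1 := by
        have h10 : ((f : ℕ) : ℤ) ≡ ((1 : ℕ) : ℤ) [ZMOD p] := by exact_mod_cast h4
        have h11 : f % p = 1 % p := (Int.natCast_modEq_iff).1 h10
        rw [h11, Nat.mod_eq_of_lt (by omega)]
      rw [List.mem_append, if_pos (by rw [Nat.beq_eq]; exact h9)]
      left; simp
    · rw [h7] at h4 hz1 ⊢
      have h10 : (f + 1) % p = 0 := by
        apply Nat.mod_eq_zero_of_dvd
        have h11 := h4.dvd
        have h12 : ((f + 1 : ℕ) : ℤ) = 1 - -(f : ℤ) := by push_cast; ring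
        exact Int.natCast_dvd_natCast.1 (by rw [h12]; exact h11)
      have h8 : f ∈ L := h6.resolve_left (fun h => by
        rw [h] at h10
        have := Nat.le_of_dvd (by norm_num) (Nat.dvd_of_mod_eq_zero h10)
        omega)
      rw [sgs, List.mem_flatMap]
      refine ⟨f, h8, ?_⟩
      rw [List.mem_append, if_pos (c := (Nat.mod (f + 1) p).beq 0 = true) (by rw [Nat.beq_eq]; exact h10)]
      right; simp
  rw [← hZl] at h3
  have h4 := srch_spec (sgs p L) Z _ hmem h3
  apply h4
  have h5 := D.dexc_eq ht.symm
  rw [hsum] at h5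
  rw [show ((i : ℤ) + 1 + Z.sum) = 1 + (i + Z.sum) by ring, h5]
  exact hdexc

/-- the inertial index: `e c = N` mod `p` -/
def solveE (p N c : ℕ) : ℕ := ((List.range p).filter fun e => Nat.beq (Nat.mod (e * c) p) (Nat.mod N p)).headD 0

/-- the check for `|G : M| = i`, `|M| = p N` -/
def blk2 (p N i : ℕ) (L : List ℕ) : Bool :=
  [1, 2].all fun c => !(Nat.beq (Nat.mod i c) 0) || blkChk p (solveE p (N * i) c) i L

theorem solveE_spec {p N c e : ℕ} (hp : p.Prime) (hc : ¬ p ∣ c) (he : e < p) (h : (e * c) % p = N % p) :
    solveE p N c = e := by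
  unfold solveE
  have hmem : e ∈ (List.range p).filter fun e => Nat.beq (Nat.mod (e * c) p) (Nat.mod N p) := by
    rw [List.mem_filter, List.mem_range, Nat.beq_eq]
    exact ⟨he, h⟩
  cases hl : (List.range p).filter fun e => Nat.beq (Nat.mod (e * c) p) (Nat.mod N p) with
  | nil => rw [hl] at hmem; simp at hmem
  | cons a l =>
    rw [List.headD_cons]
    have ha : a ∈ (List.range p).filter fun e => Nat.beq (Nat.mod (e * c) p) (Nat.mod N p) := by rw [hl]; simp
    rw [List.mem_filter, List.mem_range, Nat.beq_eq] at ha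
    have h1 : a * c ≡ e * c [MOD p] := ha.2.trans h.symm
    have h2 : a ≡ e [MOD p] := Nat.ModEq.cancel_right_of_coprime (by
      rw [(Nat.Prime.coprime_iff_not_dvd hp).2 hc]) h1
    have h3 : a % p = e % p := h2
    rwa [Nat.mod_eq_of_lt ha.1, Nat.mod_eq_of_lt he] at h3

/-- **the criterion for `|G : M| ≤ 2`** and a self-centralizing Sylow `p`-subgroup of order `p` of `M` -/
theorem DegIn.false_of_blk2 {L : List ℕ} (hL : DegIn G L) (h2 : p ≠ 2) (M : Subgroup G) [M.Normal] [IsSimpleGroup M]
    (hc : Subgroup.centralizer (M : Set G) = ⊥) {i N : ℕ} (hi : M.index = i) (hi2 : i ∣ 2) (hcard : Nat.card M = p * N)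
    (hpN : ¬ p ∣ N) (hCM : ∀ x : M, orderOf x = p → Nat.card (Subgroup.centralizer ({x} : Set M)) = p)
    (h : blk2 p N i L = true) : False := by
  have hpp := hp.out
  obtain ⟨P, c, h1, h3, h4, h5, h6, -⟩ := H603.FD.Kill.exists_e M (by rw [hi]; exact hi2) h2 hcard hpN hCM
  have hc2 : c ∣ 2 := h3.trans (by rw [hi]; exact hi2)
  have hc12 : c = 1 ∨ c = 2 := (Nat.dvd_prime Nat.prime_two).1 hc2
  have hpc : ¬ p ∣ c := fun h => h2 ((Nat.prime_dvd_prime_iff_eq hpp Nat.prime_two).1 (h.trans hc2))
  -- the inertial index
  obtain ⟨e, he⟩ : ∃ e, e = (Subgroup.centralizer ((P : Subgroup G) : Set G)).relIndex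
      (Subgroup.normalizer ((P : Subgroup G) : Set G)) := ⟨_, rfl⟩
  have hsol : ∃ e', e' < p ∧ (e' * c) % p = (N * M.index) % p := by
    have hcop : Nat.Coprime c p := ((Nat.Prime.coprime_iff_not_dvd hpp).2 hpc).symm
    obtain ⟨y, hy⟩ := Nat.exists_mul_mod_eq_one_of_coprime hcop hpp.one_lt
    refine ⟨(y * (N * M.index)) % p, Nat.mod_lt _ hpp.pos, ?_⟩
    have hy' : c * y ≡ 1 [MOD p] := by
      have : (c * y) % p = 1 % p := by rw [hy.2]; exact (Nat.mod_eq_of_lt hpp.one_lt).symm
      exact this
    have h7 : (y * (N * M.index)) % p * c ≡ N * M.index [MOD p] := by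
      calc (y * (N * M.index)) % p * c ≡ y * (N * M.index) * c [MOD p] := (Nat.mod_modEq _ _).mul_right _
        _ = (c * y) * (N * M.index) := by ring
        _ ≡ 1 * (N * M.index) [MOD p] := hy'.mul_right _
        _ = N * M.index := one_mul _
    exact h7
  obtain ⟨e', he', hs⟩ := hsol
  have h7 := H603.FD.Kill.relIndex_eq P h1 h4 h5 h6 he' hs
  have h8 : solveE p (N * i) c = e' := by
    apply solveE_spec hpp hpc he'
    rw [hs, hi]
  have h9 : (commutator G).index ≤ i := hi ▸ H603.FD.Kill.index_commutator M hc
  refine hL.false_of_blk h2 P h1 h7 h9 ?_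
  rw [blk2, List.all_eq_true] at h
  have h10 := h c (by simpa using hc12)
  rw [Bool.or_eq_true] at h10
  rcases h10 with h10 | h10
  · exfalso
    rw [Bool.not_eq_true', ← Bool.not_eq_true, Nat.beq_eq] at h10
    exact h10 (Nat.mod_eq_zero_of_dvd (by rw [← hi]; exact h3))
  · rwa [h8] at h10

/-- the criterion of the principal block as a killing criterion -/
theorem kills_blk2 (h2 : p ≠ 2) (M : Subgroup G) [M.Normal] [IsSimpleGroup M]
    (hc : Subgroup.centralizer (M : Set G) = ⊥) {i N : ℕ} (hi : M.index = i) (hi2 : i ∣ 2) (hcard : Nat.card M = p * N)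
    (hpN : ¬ p ∣ N) (hCM : ∀ x : M, orderOf x = p → Nat.card (Subgroup.centralizer ({x} : Set M)) = p) :
    Kills G (blk2 p N i) := fun _ hL h => hL.false_of_blk2 h2 M hc hi hi2 hcard hpN hCM h

end

end Cfsg.Agent.H789.CdSn
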