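import Cfsg.Agent.H789.CdSn.Tab

/-!
# Lists of candidates for the degrees (helper789, for S4906)

* `pt f m k` : the partitions of `m` with parts at most `k`;
* `degOf n t` : the degree of the partition `(n - |t|, t)`;
* `Bnd n N L` : all the degrees `d` of `S_n` with `d ∣ N`, `d² ≤ N` are `1` or in `L`;
* `bnd_full`, `bnd_one`, `bnd_two`, `bnd_tab`, `bnd_choose` : ways to prove this by a computation.
-/

set_option autoImplicit false
set_option linter.unusedSectionVars false

namespace Cfsg.Agent.H789.CdSn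

open Finset Cfsg.Agent.H704

/-- the partitions of `m` with parts at most `k` (`f` is fuel) -/
def pt : ℕ → ℕ → ℕ → List (List ℕ)
  | _, 0, _ => [[]]
  | 0, _ + 1, _ => []
  | f + 1, m + 1, k => (List.range (min (m + 1) k)).flatMap fun i => (pt f (m - i) (i + 1)).map ((i + 1) :: ·)

theorem mem_pt : ∀ (l : List ℕ) (f m k : ℕ), l.Pairwise (· ≥ ·) → (∀ a ∈ l, 0 < a) → l.sum = m → (∀ a ∈ l, a ≤ k) →
    m ≤ f → l ∈ pt f m k := by
  intro l
  induction l with
  | nil =>
    intro f m k _ _ hs _ _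
    rw [List.sum_nil] at hs
    subst hs
    cases f <;> simp [pt]
  | cons a l ih =>
    intro f m k h1 h2 h3 h4 h5
    rw [List.sum_cons] at h3
    have ha : 0 < a := h2 a (by simp)
    obtain ⟨i, rfl⟩ : ∃ i, a = i + 1 := ⟨a - 1, by omega⟩
    obtain ⟨m', rfl⟩ : ∃ m', m = m' + 1 := ⟨m - 1, by omega⟩
    obtain ⟨f', rfl⟩ : ∃ f', f = f' + 1 := ⟨f - 1, by omega⟩
    rw [pt, List.mem_flatMap]
    refine ⟨i, ?_, ?_⟩
    · rw [List.mem_range, lt_min_iff]
      have := h4 (i + 1) (by simp)
      omega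
    · rw [List.mem_map]
      refine ⟨l, ih f' (m' - i) (i + 1) h1.of_cons (fun c hc => h2 c (List.mem_cons_of_mem _ hc)) (by omega)
        (fun c hc => List.rel_of_pairwise_cons h1 hc) (by omega), rfl⟩

/-- the partitions of sum at most `M` -/
def pts (M : ℕ) : List (List ℕ) := (List.range (M + 1)).flatMap fun m => pt m m m

theorem sum_le_of_mem {l : List ℕ} {a : ℕ} (h : a ∈ l) : a ≤ l.sum := List.single_le_sum (by simp) a h

theorem mem_pts {l : List ℕ} {M : ℕ} (h1 : l.Pairwise (· ≥ ·)) (h2 : ∀ a ∈ l, 0 < a) (h3 : l.sum ≤ M) : l ∈ pts M := by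
  rw [pts, List.mem_flatMap]
  exact ⟨l.sum, by rw [List.mem_range]; omega, mem_pt l _ _ _ h1 h2 rfl (fun a ha => sum_le_of_mem ha) le_rfl⟩

/-- the partitions `t` with `|t| + t₁ ≤ E` -/
def ptE (E : ℕ) : List (List ℕ) := (List.range (E + 1)).flatMap fun m => pt m m (E - m)

theorem mem_ptE {l : List ℕ} {E : ℕ} (h1 : l.Pairwise (· ≥ ·)) (h2 : ∀ a ∈ l, 0 < a) (h3 : l.sum + l.headD 0 ≤ E) :
    l ∈ ptE E := by
  rw [ptE, List.mem_flatMap]
  refine ⟨l.sum, by rw [List.mem_range]; omega, mem_pt l _ _ _ h1 h2 rfl (fun a ha => ?_) le_rfl⟩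
  have : a ≤ l.headD 0 := by
    cases l with
    | nil => simp at ha
    | cons b l =>
      rcases List.mem_cons.1 ha with rfl | ha
      · simp
      · exact List.rel_of_pairwise_cons h1 ha
  omega

/-- the degree of the partition `(n - |t|, t)` -/
def degOf (n : ℕ) (t : List ℕ) : ℕ :=
  Nat.div (n.descFactorial (t.sum + t.headD 0))
    (hookProd t * ((List.range (t.headD 0)).map fun j => n - t.sum - j + colLen t j).prod)

theorem degOf_eq {a : ℕ} {t : List ℕ} {n d : ℕ} (hl : IsPart (a :: t) n) (hd : d * hookProd (a :: t) = n.factorial) :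
    degOf n t = d := by
  have hS := hl.sorted
  have hsum : a + t.sum = n := by have := hl.sum; rwa [List.sum_cons] at this
  have hka : t.headD 0 ≤ a := by
    cases t with
    | nil => simp
    | cons b t => exact List.rel_of_pairwise_cons hS (by simp)
  obtain ⟨f, hf0, hf⟩ := exists_deg hS.of_cons (n := t.sum) rfl
  have h := deg_mul_desc hl hd hf
  have ha : n - t.sum = a := by omega
  have hP : ((List.range (t.headD 0)).map fun j => n - t.sum - j + colLen t j).prod =
      ∏ j ∈ range (t.headD 0), (a - j + colLen t j) := by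
    rw [ha]
    rfl
  have hP0 : 0 < ∏ j ∈ range (t.headD 0), (a - j + colLen t j) := by
    apply Finset.prod_pos
    intro j hj
    rw [mem_range] at hj
    omega
  have hH0 : 0 < hookProd t := hookProd_pos hS.of_cons
  have h2 : n.descFactorial (t.sum + t.headD 0) = d * (hookProd t * ∏ j ∈ range (t.headD 0), (a - j + colLen t j)) := by
    apply Nat.eq_of_mul_eq_mul_left hf0
    rw [← h, ← hf]
    ring
  rw [degOf, hP, h2]
  exact Nat.mul_div_cancel d (Nat.mul_pos hH0 hP0)

/-- all the degrees `d` of `S_n` with `d ∣ N`, `d² ≤ N` are `1` or in `L` -/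
def Bnd (n N : ℕ) (L : List ℕ) : Prop := ∀ d, IsDeg n d → d ∣ N → d * d ≤ N → d = 1 ∨ d ∈ L

/-- the test of a number -/
def ok (N d : ℕ) : Bool := Nat.ble 2 d && Nat.ble (d * d) N && Nat.beq (Nat.mod N d) 0

theorem ok_of {N d : ℕ} (h1 : d ≠ 1) (h0 : 0 < d) (h2 : d ∣ N) (h3 : d * d ≤ N) : ok N d = true := by
  simp only [ok, Bool.and_eq_true, Nat.ble_eq, Nat.beq_eq]
  exact ⟨⟨by omega, h3⟩, Nat.mod_eq_zero_of_dvd h2⟩

/-- the candidates for `n` -/
def cand (n N : ℕ) (T : List (List ℕ)) : List ℕ := (T.map (degOf n)).filter (ok N)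

theorem mem_cand {n N d : ℕ} {T : List (List ℕ)} {t : List ℕ} (ht : t ∈ T) (hd : degOf n t = d) (h1 : d ≠ 1) (h0 : 0 < d)
    (h2 : d ∣ N) (h3 : d * d ≤ N) : d ∈ cand n N T := by
  rw [cand, List.mem_filter, List.mem_map]
  exact ⟨⟨t, ht, hd⟩, ok_of h1 h0 h2 h3⟩

theorem pos_of_isDeg {n d : ℕ} (h : IsDeg n d) : 0 < d := by
  obtain ⟨l, -, h⟩ := h
  exact pos_of_deg h

/-- the full enumeration -/
theorem bnd_full {n N F : ℕ} {L : List ℕ} (hF : n.factorial = F)
    (h : go (fun _ H => !(ok N (Nat.div F H)) || L.contains (Nat.div F H)) (n + 1) n 1 [] 1 = true) : Bnd n N L := by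
  subst hF
  intro d hd h2 h3
  by_cases h1 : d = 1
  · exact Or.inl h1
  right
  have h4 := check_of_isDeg (chk := fun x => !(ok N x) || L.contains x) h hd
  simp only [ok_of h1 (pos_of_isDeg hd) h2 h3, Bool.not_true, Bool.false_or] at h4
  exact List.contains_iff_mem.1 h4

/-- one prime `r ≤ n` that does not divide `N` -/
theorem bnd_one {n N F E r : ℕ} {L : List ℕ} (hF : n.factorial = F) (hr : r.Prime) (hrN : ¬ r ∣ N) (hE : n = r + E)
    (h : goP E (fun H => !(ok N (Nat.div F H)) || L.contains (Nat.div F H)) (n + 1) n 1 [] 1 = true) : Bnd n N L := by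
  subst hF
  intro d hd h2 h3
  by_cases h1 : d = 1
  · exact Or.inl h1
  right
  have h4 := check_of_isDegP (chk := fun x => !(ok N x) || L.contains x) hr (by omega) hE h hd
    (fun h => hrN (h.trans h2))
  simp only [ok_of h1 (pos_of_isDeg hd) h2 h3, Bool.not_true, Bool.false_or] at h4
  exact List.contains_iff_mem.1 h4

/-- two primes in `(n/2, n]` that do not divide `N` -/
theorem bnd_two {n N r s E : ℕ} (hr : r.Prime) (hs : s.Prime) (hrs : r < s) (h1 : n < 2 * r) (h2 : s ≤ n)
    (h3 : ¬ r ∣ N) (h4 : ¬ s ∣ N) (hE : 2 * n + 1 ≤ r + s + E) : Bnd n N (cand n N (ptE E)) := by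
  intro d hd hdN hdd
  by_cases hd1 : d = 1
  · exact Or.inl hd1
  right
  obtain ⟨l, hl, hh⟩ := hd
  obtain ⟨l', hl', hh', g1, g2, g3⟩ := exists_two_hooks hl hh hr hs hrs h1 h2 (fun h => h3 (h.trans hdN))
    (fun h => h4 (h.trans hdN))
  have hp := pos_of_deg hh'
  cases l' with
  | nil => simp at g3
  | cons a t =>
    have ht : t ∈ ptE E := by
      apply mem_ptE hl'.sorted.of_cons (fun c hc => hl'.pos c (List.mem_cons_of_mem _ hc))
      have hsum := hl'.sum
      rw [List.sum_cons] at hsum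
      by_cases h0 : 0 < (a :: t).getD 1 0
      · have h5 := rows_of_hooks hl' g1 g2 h0
        rw [List.getD_cons_succ, List.headD_cons, ← headD_getD] at h5
        omega
      · rw [List.getD_cons_succ, ← headD_getD] at h0
        have h6 : t = [] := by
          cases t with
          | nil => rfl
          | cons b t =>
            exfalso
            apply h0
            exact hl'.pos b (by simp)
        subst h6
        simp
    exact mem_cand ht (degOf_eq hl' hh') hd1 hp hdN hdd

/-- the level approach -/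
theorem bnd_of_LB {n N M B : ℕ} (hLB : LB n (M + 1) B) (hB : N < B * B) : Bnd n N (cand n N (pts M)) := by
  intro d hd hdN hdd
  by_cases hd1 : d = 1
  · exact Or.inl hd1
  right
  obtain ⟨l, hl, hh⟩ := hd
  have hp := pos_of_deg hh
  have key : ∀ l : List ℕ, IsPart l n → d * hookProd l = n.factorial → n < l.headD 0 + (M + 1) → d ∈ cand n N (pts M) := by
    intro l hl hh hlt
    cases l with
    | nil =>
      have hn : n = 0 := by have := hl.sum; rw [List.sum_nil] at this; omega
      exfalso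
      subst hn
      rw [hookProd, mul_one] at hh
      exact hd1 hh
    | cons a t =>
      rw [List.headD_cons] at hlt
      have hsum := hl.sum
      rw [List.sum_cons] at hsum
      exact mem_cand (mem_pts hl.sorted.of_cons (fun c hc => hl.pos c (List.mem_cons_of_mem _ hc)) (by omega))
        (degOf_eq hl hh) hd1 hp hdN hdd
  by_cases h1 : l.headD 0 + (M + 1) ≤ n
  · by_cases h2 : colLen l 0 + (M + 1) ≤ n
    · exfalso
      have h3 := hLB l d hl.sorted hl.sum hh h1 h2
      have h4 := Nat.mul_le_mul h3 h3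
      omega
    · refine key (transpose l) (isPart_transpose hl) (by rw [hookProd_transpose hl, hh]) ?_
      rw [headD_eq_getD, getD_transpose hl.sorted]
      omega
  · exact key l hl hh (by omega)

/-- by the table, `21 ≤ n` -/
theorem bnd_tab {n N : ℕ} (M : ℕ) (hn : 21 ≤ n) (hB : Nat.blt N ((tab n).getD (M + 1) 1 * (tab n).getD (M + 1) 1) = true) :
    Bnd n N (cand n N (pts M)) :=
  bnd_of_LB (LB_tab hn) (by simpa [Nat.blt] using hB)

/-- by the closed form, `48 ≤ n` and `M ≤ 8` -/
theorem bnd_choose {n N : ℕ} (M : ℕ) (hn : 48 ≤ n) (hM : M ≤ 8)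
    (hB : N < (n - (M + 1)).choose (M + 1) * (n - (M + 1)).choose (M + 1)) :
    Bnd n N (cand n N (pts M)) :=
  bnd_of_LB (LB_choose (by omega) hn) hB

end Cfsg.Agent.H789.CdSn
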