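import Cfsg.Agent.H789.CdSn.Cand
import Cfsg.Agent.H603.FD.Kill
import Cfsg.Agent.SmallSimple.DegreeData
import Cfsg.Agent.S4456

/-!
# Killing criteria (helper789, for S4906)

* `Adm n G` : all the degrees of `G` are degrees of `S_n`;
* `DegIn G L` : all the degrees of `G` are `1` or in `L`;
* `killed qs ps L` : the list `L` has at most three members, or all members divisible by a prime of `qs` (Thompson),
  or all members prime to a prime of `ps` (Itô-Michler);
* `Facts G qs ps` : at least five degrees, Thompson for the primes of `qs`, Itô-Michler for the primes of `ps`.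
-/

set_option autoImplicit false
set_option linter.unusedSectionVars false

open Cfsg

namespace Cfsg.Agent.H789.CdSn

open Cfsg.Agent.H704

universe u

/-- all the degrees of `G` are degrees of `S_n` -/
def Adm (n : ℕ) (G : Type*) [Group G] : Prop := ∀ d ∈ charDegrees G, IsDeg n d

/-- all the degrees of `G` are `1` or in `L` -/
def DegIn (G : Type*) [Group G] (L : List ℕ) : Prop := ∀ d ∈ charDegrees G, d = 1 ∨ d ∈ L

section

variable {G : Type u} [Group G] [Finite G]

theorem sq_le {d : ℕ} (h : d ∈ charDegrees G) : d * d ≤ Nat.card G := by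
  classical
  obtain ⟨χ, rfl⟩ := h
  have := Characters.Core.finite_irr (G := G)
  have := Fintype.ofFinite (IrrCharacter G)
  rw [← SmallSimple.DegreeData.sum_sq (G := G), ← sq]
  exact Finset.single_le_sum (f := fun χ : IrrCharacter G => charDegree (χ : G → ℂ) ^ 2) (fun _ _ => Nat.zero_le _)
    (Finset.mem_univ χ)

theorem Adm.degIn {n N : ℕ} {L : List ℕ} (h : Adm n G) (hN : Nat.card G = N) (hB : Bnd n N L) : DegIn G L := by
  intro d hd
  refine hB d (h d hd) ?_ ?_
  · rw [← hN]; exact H603.FD.Kill.dvd_card hd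
  · rw [← hN]; exact sq_le hd

/-- the number of distinct members -/
def cnt : List ℕ → ℕ
  | [] => 0
  | a :: l => (if l.contains a then 0 else 1) + cnt l

theorem card_le_cnt : ∀ l : List ℕ, l.toFinset.card ≤ cnt l := by
  intro l
  induction l with
  | nil => simp [cnt]
  | cons a l ih =>
    rw [cnt, List.toFinset_cons]
    split_ifs with h
    · rw [Finset.insert_eq_of_mem (List.mem_toFinset.2 (List.contains_iff_mem.1 h))]
      omega
    · refine (Finset.card_insert_le _ _).trans ?_
      omega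

/-- the criterion on a list of degrees; `qs` are the primes for Thompson, `ps` the primes for Itô-Michler -/
def killed (qs ps L : List ℕ) : Bool :=
  Nat.ble (cnt L) 3 || (qs.any fun p => L.all fun d => Nat.beq (Nat.mod d p) 0) ||
    (ps.any fun p => L.all fun d => !(Nat.beq (Nat.mod d p) 0))

/-- what is known on the degrees of `G` -/
structure Facts (G : Type*) [Group G] (qs ps : List ℕ) : Prop where
  /-- at least five degrees -/
  five : 5 ≤ (charDegrees G).ncard
  /-- Thompson's theorem -/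
  th : ∀ p ∈ qs, ∃ d ∈ charDegrees G, d ≠ 1 ∧ ¬ p ∣ d
  /-- Itô-Michler -/
  im : ∀ p ∈ ps, ∃ d ∈ charDegrees G, p ∣ d

/-- **the criterion** -/
theorem Facts.false_of_killed {qs ps L : List ℕ} (F : Facts G qs ps) (h1 : ∀ p ∈ ps, p ≠ 1) (hL : DegIn G L)
    (hk : killed qs ps L = true) : False := by
  simp only [killed, Bool.or_eq_true, Nat.ble_eq, List.any_eq_true, List.all_eq_true, Nat.beq_eq,
    Bool.not_eq_true', ← Bool.not_eq_true] at hk
  rcases hk with (hk | ⟨p, hp, hk⟩) | ⟨p, hp, hk⟩
  · have h2 : charDegrees G ⊆ ((insert 1 L.toFinset : Finset ℕ) : Set ℕ) := by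
      intro d hd
      rw [Finset.mem_coe, Finset.mem_insert, List.mem_toFinset]
      exact hL d hd
    have h3 := Set.ncard_le_ncard h2 (Finset.finite_toSet _)
    rw [Set.ncard_coe_finset] at h3
    have h4 := Finset.card_insert_le 1 L.toFinset
    have h5 := card_le_cnt L
    have h6 := F.five
    omega
  · obtain ⟨d, hd, hd1, hpd⟩ := F.th p hp
    rcases hL d hd with h | h
    · exact hd1 h
    · exact hpd (Nat.dvd_of_mod_eq_zero (hk d h))
  · obtain ⟨d, hd, hpd⟩ := F.im p hp
    rcases hL d hd with h | h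
    · subst h
      exact h1 p hp (Nat.dvd_one.1 hpd)
    · exact hk d h (Nat.mod_eq_zero_of_dvd hpd)

/-- the criterion `κ` on lists of possible degrees is contradictory for `G` -/
def Kills (G : Type*) [Group G] (κ : List ℕ → Bool) : Prop := ∀ L, DegIn G L → κ L = true → False

theorem Facts.kills {qs ps : List ℕ} (F : Facts G qs ps) (h1 : ∀ p ∈ ps, p ≠ 1) : Kills G (killed qs ps) :=
  fun _ hL hk => F.false_of_killed h1 hL hk

omit [Finite G] in
theorem Kills.or {κ₁ κ₂ : List ℕ → Bool} (h₁ : Kills G κ₁) (h₂ : Kills G κ₂) : Kills G (fun L => κ₁ L || κ₂ L) := by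
  intro L hL hk
  rw [Bool.or_eq_true] at hk
  rcases hk with h | h
  · exact h₁ L hL h
  · exact h₂ L hL h

/-- a degree divisible by a prime larger than `n` -/
theorem Adm.false_of_lt {n p : ℕ} (hA : Adm n G) (hp : p.Prime) (h : ∃ d ∈ charDegrees G, p ∣ d) (hn : n < p) : False := by
  obtain ⟨d, hd, hpd⟩ := h
  obtain ⟨l, -, he⟩ := hA d hd
  have h1 : p ∣ n.factorial := hpd.trans ⟨_, he.symm⟩
  exact absurd ((hp.dvd_factorial).1 h1) (by omega)

theorem Adm.kill {κ : List ℕ → Bool} (hκ : Kills G κ) {n N : ℕ} {L : List ℕ} (hA : Adm n G) (hN : Nat.card G = N)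
    (hB : Bnd n N L) (h : κ L = true) : False := hκ L (hA.degIn hN hB) h

/-! ### Ranges of `n` -/

/-- the check at `n`, by the table (`21 ≤ n`), depth at most `M` -/
def chkTab (κ : List ℕ → Bool) (N M : ℕ) (T : List (List ℕ)) (n : ℕ) : Bool :=
  Nat.blt N ((tab n).getD (M + 1) 1 * (tab n).getD (M + 1) 1) && κ (cand n N T)

/-- the check at `n`, by the closed form (`48 ≤ n`), depth at most `M ≤ 8` -/
def chkCh (κ : List ℕ → Bool) (N M : ℕ) (T : List (List ℕ)) (n : ℕ) : Bool :=
  Nat.blt N (Nat.div ((n - (M + 1)).descFactorial (M + 1)) (M + 1).factorial *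
    Nat.div ((n - (M + 1)).descFactorial (M + 1)) (M + 1).factorial) && κ (cand n N T)

theorem kill_tab_range {κ : List ℕ → Bool} (hκ : Kills G κ) {N : ℕ} (lo k M : ℕ)
    (hN : Nat.card G = N) (h21 : 21 ≤ lo) (h : ((List.range k).all fun i => chkTab κ N M (pts M) (lo + i)) = true)
    {n : ℕ} (hn : lo ≤ n) (hn' : n < lo + k) (hA : Adm n G) : False := by
  rw [List.all_eq_true] at h
  have h2 := h (n - lo) (by rw [List.mem_range]; omega)
  rw [show lo + (n - lo) = n by omega, chkTab, Bool.and_eq_true] at h2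
  exact hA.kill hκ hN (bnd_tab M (by omega) h2.1) h2.2

theorem bnd_desc {n N M : ℕ} (hn : 48 ≤ n) (hM : M ≤ 8)
    (hB : Nat.blt N (Nat.div ((n - (M + 1)).descFactorial (M + 1)) (M + 1).factorial *
      Nat.div ((n - (M + 1)).descFactorial (M + 1)) (M + 1).factorial) = true) :
    Bnd n N (cand n N (pts M)) := by
  refine bnd_choose M hn hM ?_
  rw [Nat.choose_eq_descFactorial_div_factorial]
  rw [Nat.blt_eq] at hB
  exact hB

theorem kill_ch_range {κ : List ℕ → Bool} (hκ : Kills G κ) {N : ℕ} (lo k M : ℕ)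
    (hN : Nat.card G = N) (h48 : 48 ≤ lo) (hM : M ≤ 8)
    (h : ((List.range k).all fun i => chkCh κ N M (pts M) (lo + i)) = true)
    {n : ℕ} (hn : lo ≤ n) (hn' : n < lo + k) (hA : Adm n G) : False := by
  rw [List.all_eq_true] at h
  have h2 := h (n - lo) (by rw [List.mem_range]; omega)
  rw [show lo + (n - lo) = n by omega, chkCh, Bool.and_eq_true] at h2
  exact hA.kill hκ hN (bnd_desc (by omega) hM h2.1) h2.2

theorem cnt_le_length : ∀ l : List ℕ, cnt l ≤ l.length := by
  intro l
  induction l with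
  | nil => simp [cnt]
  | cons a l ih =>
    rw [cnt, List.length_cons]
    split_ifs <;> omega

theorem choose_mono3 {a b : ℕ} (h : a ≤ b) : (a - 3).choose 3 ≤ (b - 3).choose 3 := Nat.choose_le_choose 3 (by omega)

/-- at most three candidates for large `n` -/
theorem cnt_cand_two (n N : ℕ) : cnt (cand n N (pts 2)) ≤ 3 := by
  refine (cnt_le_length _).trans ?_
  have h6 : pts 2 = [[], [1], [1, 1], [2]] := by decide
  have h7 : ok N (degOf n []) = false := by
    have : degOf n [] = 1 := by simp [degOf, hookProd]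
    rw [this]
    simp [ok]
  rw [cand, h6, List.map_cons, List.filter_cons, h7]
  refine (List.length_filter_le _ _).trans ?_
  simp

/-- **the tail** -/
theorem kill_tail (h5 : 5 ≤ (charDegrees G).ncard) {N : ℕ} (n₁ : ℕ) (hN : Nat.card G = N) (h48 : 48 ≤ n₁)
    (hB : Nat.blt N (Nat.div ((n₁ - 3).descFactorial 3) 6 * Nat.div ((n₁ - 3).descFactorial 3) 6) = true)
    {n : ℕ} (hn : n₁ ≤ n) (hA : Adm n G) : False := by
  have h1 : N < (n₁ - 3).choose 3 * (n₁ - 3).choose 3 := by
    rw [Nat.choose_eq_descFactorial_div_factorial]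
    rw [Nat.blt_eq] at hB
    exact hB
  have h2 := choose_mono3 hn
  have h3 : N < (n - 3).choose 3 * (n - 3).choose 3 := h1.trans_le (Nat.mul_le_mul h2 h2)
  have F : Facts G [] [] := ⟨h5, by simp, by simp⟩
  refine hA.kill (F.kills (by simp)) hN (bnd_choose 2 (by omega) (by norm_num) h3) ?_
  simp only [killed, Bool.or_eq_true, Nat.ble_eq]
  exact Or.inl (Or.inl (cnt_cand_two n N))

/-! ### Known degrees -/

/-- `k` is not a degree of `S_n` -/
theorem not_isDeg_of_bnd {n k : ℕ} {L : List ℕ} (hB : Bnd n (k * k) L) (hk : 1 < k) (hL : L.contains k = false) :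
    ¬ IsDeg n k := by
  intro h
  rcases hB k h (Dvd.intro _ rfl) le_rfl with h1 | h1
  · omega
  · rw [← List.contains_iff_mem, hL] at h1
    exact Bool.false_ne_true h1

/-- the check that `k` is not a degree of `S_n`, by the table (`21 ≤ n`) -/
def notTab (k M n : ℕ) : Bool :=
  Nat.blt (k * k) ((tab n).getD (M + 1) 1 * (tab n).getD (M + 1) 1) && !((cand n (k * k) (pts M)).contains k)

theorem not_isDeg_tab {k M n : ℕ} (h21 : 21 ≤ n) (hk : 1 < k) (h : notTab k M n = true) : ¬ IsDeg n k := by
  rw [notTab, Bool.and_eq_true, Bool.not_eq_true'] at h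
  exact not_isDeg_of_bnd (bnd_tab M h21 h.1) hk h.2

theorem not_isDeg_tab_range {k : ℕ} (lo c M : ℕ) (h21 : 21 ≤ lo) (hk : 1 < k)
    (h : ((List.range c).all fun i => notTab k M (lo + i)) = true) {n : ℕ} (hn : lo ≤ n) (hn' : n < lo + c) :
    ¬ IsDeg n k := by
  rw [List.all_eq_true] at h
  have h2 := h (n - lo) (by rw [List.mem_range]; omega)
  rw [show lo + (n - lo) = n by omega] at h2
  exact not_isDeg_tab (by omega) hk h2

/-- a full enumeration -/
theorem not_isDeg_full {n k F : ℕ} (hF : n.factorial = F)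
    (h : go (fun _ H => !(Nat.beq (k * H) F)) (n + 1) n 1 [] 1 = true) : ¬ IsDeg n k := by
  rintro ⟨l, hl, he⟩
  have h1 := check_of_isPart h hl
  rw [Bool.not_eq_true', ← Bool.not_eq_true, Nat.beq_eq] at h1
  exact h1 (he.trans hF)

/-- for `9 ≤ n` a degree `k > 1` is `n - 1` or `n` is small -/
theorem le_of_isDeg {n k : ℕ} (hn : 9 ≤ n) (hk : 1 < k) (h : IsDeg n k) : n = k + 1 ∨ n * (n - 3) ≤ 2 * k := by
  rcases low_degree hn h with h1 | h1 | h1
  · omega
  · left; omega
  · exact Or.inr h1

/-! ### Thompson's theorem for almost simple groups -/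

/-- a degree prime to `p` and different from `1`, for all primes `p` dividing the order of the socle -/
theorem exists_not_dvd (M : Subgroup G) [M.Normal] [IsSimpleGroup M] (hc : Subgroup.centralizer (M : Set G) = ⊥)
    {p : ℕ} (hp : p.Prime) (hpM : p ∣ Nat.card M) : ∃ d ∈ charDegrees G, d ≠ 1 ∧ ¬ p ∣ d := by
  by_contra hcon
  push Not at hcon
  obtain ⟨K, hK, h1, k, h2⟩ := S4456.result (G := G) p hp fun χ hχ => hcon _ ⟨χ, rfl⟩ hχ
  rcases H603.FD.Kill.le_or_inf_bot M K hK with h | h
  · have h3 := Subgroup.card_dvd_of_le h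
    exact hp.one_lt.ne' (Nat.dvd_one.1 (h1 ▸ Nat.dvd_gcd (hpM.trans h3) dvd_rfl))
  · -- `M` embeds into `G / K`
    apply H603.FD.Kill.not_comm M hc
    rw [IsSimpleGroup.comm_iff_isSolvable]
    have h3 : Nat.card M ∣ p ^ k := by
      rw [← h2]
      have h4 : Function.Injective ((QuotientGroup.mk' K).comp M.subtype) := by
        rw [← MonoidHom.ker_eq_bot_iff, eq_bot_iff]
        intro x hx
        rw [MonoidHom.mem_ker, MonoidHom.comp_apply, QuotientGroup.mk'_apply, QuotientGroup.eq_one_iff] at hx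
        have h5 : (x : G) ∈ M ⊓ K := ⟨x.2, hx⟩
        rw [h, Subgroup.mem_bot] at h5
        rw [Subgroup.mem_bot]
        exact Subtype.ext h5
      exact Subgroup.card_dvd_of_injective _ h4
    have hpg : IsPGroup p M := by
      obtain ⟨j, -, hj⟩ := (Nat.dvd_prime_pow hp).1 h3
      exact IsPGroup.of_card hj
    have : Fact p.Prime := ⟨hp⟩
    have hn : Group.IsNilpotent M := hpg.isNilpotent
    infer_instance

end

end Cfsg.Agent.H789.CdSn
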