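import Cfsg.Agent.H704.Hooks
import Cfsg.Agent.H704.LowDegree

/-!
# Lower bounds for the degrees of the symmetric groups by depth (helper789, for S4906)

The depth of a partition of `n` is `n` minus the largest of the first row and the first column.

* `LB n m B` : all the degrees of depth at least `m` are at least `B`;
* `step` : the induction step by branching;
* `nxt`, `tab` : the table of lower bounds.
-/

set_option autoImplicit false
set_option linter.unusedSectionVars false

namespace Cfsg.Agent.H789.CdSn

open Finset Cfsg.Agent.H704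

/-- all the degrees of partitions of `n` of depth at least `m` are at least `B` -/
def LB (n m B : ℕ) : Prop := ∀ (l : List ℕ) (d : ℕ), Dec l → l.sum = n → d * hookProd l = n.factorial →
  l.headD 0 + m ≤ n → colLen l 0 + m ≤ n → B ≤ d

theorem LB.mono {n m m' B B' : ℕ} (h : LB n m B) (hm : m ≤ m') (hB : B' ≤ B) : LB n m' B' :=
  fun l d h1 h2 h3 h4 h5 => hB.trans (h l d h1 h2 h3 (by omega) (by omega))

theorem LB.one (n m : ℕ) : LB n m 1 := fun _ _ _ _ h3 _ _ => pos_of_deg h3

/-- the case of a long first row -/
theorem step_head {n m B0 B1 : ℕ} (hm : 1 ≤ m) (hn : 2 * m + 3 ≤ n) (h1 : LB n m B1) (h0 : LB n (m - 1) B0)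
    {l : List ℕ} {d : ℕ} (hl : Dec l) (hs : l.sum = n + 1) (hd : d * hookProd l = (n + 1).factorial)
    (hh : l.headD 0 + m = n + 1) : B1 + B0 ≤ d := by
  obtain ⟨a1, a2, a3⟩ := sum_facts hl (by omega)
  have hc0 : l.getD (0 + 1) 0 < l.getD 0 0 := by
    rw [← headD_eq_getD, zero_add]; omega
  have hc1 := corner_last hl (by omega)
  have hlen0 : 0 < l.length := lt_length_of_getD hc0
  -- the first column is short
  have hcol : colLen l 0 ≤ m + 1 := by
    have e1 : ∀ c ∈ l, 0 ≤ c := fun c _ => Nat.zero_le c
    cases l with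
    | nil => simp [colLen]
    | cons a t =>
      rw [List.sum_cons] at hs
      rw [List.headD_cons] at hh
      rw [colLen_cons]
      have e2 : colLen t 0 ≤ t.sum := by
        clear * -
        induction t with
        | nil => simp [colLen]
        | cons b t ih =>
          rw [colLen_cons, List.sum_cons]
          split_ifs <;> omega
      split_ifs <;> omega
  obtain ⟨d1, -, hd1⟩ := exists_deg (dec_rm hl hc0) (n := n) (by have := sum_rm hc0; omega)
  obtain ⟨d2, hp2, hd2⟩ := exists_deg (dec_rm hl hc1) (n := n) (by have := sum_rm hc1; omega)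
  have h4 := branch_two hl hs (i := 0) (k := colLen l 0 - 1) (by omega) hc0 hc1 hd hd1 hd2
  have b1 := colLen_rm_le hl hc0 0
  have b2 := colLen_rm_le hl hc1 0
  have b3 := headD_rm_zero hlen0
  have b4 := headD_rm_pos (lt_length_of_getD hc1) (i := colLen l 0 - 1) (by omega)
  have h5 := h1 (rm l 0) d1 (dec_rm hl hc0) (by have := sum_rm hc0; omega) hd1 (by omega) (by omega)
  have h6 := h0 (rm l (colLen l 0 - 1)) d2 (dec_rm hl hc1) (by have := sum_rm hc1; omega) hd2 (by omega) (by omega)
  omega

/-- **the induction step** -/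
theorem step {n m B0 B1 B1' B : ℕ} (hm : 1 ≤ m) (hn : 2 * m + 3 ≤ n) (ih1 : LB n m B1) (ih2 : LB (n - 1) m B1')
    (ih0 : LB n (m - 1) B0) (hB1 : B ≤ B1 + B0) (hB2 : B ≤ 2 * B1) (hB3 : B ≤ 2 * B1') : LB (n + 1) m B := by
  intro l d hl hs hd hh hc
  by_cases hA : l.headD 0 + m = n + 1
  · exact hB1.trans (step_head hm hn ih1 ih0 hl hs hd hA)
  by_cases hB : colLen l 0 + m = n + 1
  · -- transpose
    have h0 : (transpose l).headD 0 = colLen l 0 := by
      rw [headD_eq_getD, getD_transpose hl]
    exact hB1.trans (step_head hm hn ih1 ih0 (pairwise_transpose l) (by rw [sum_transpose hl, hs])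
      (by rw [hookProd_transpose' hl, hd]) (by rw [h0, hB]))
  · have hpos : 0 < l.headD 0 := by
      by_contra hne
      have h1 := sum_eq_sum_colLen hl
      rw [show l.headD 0 = 0 by omega, sum_range_zero] at h1
      omega
    have hcpos : 0 < colLen l 0 := by
      rw [← getD_pos_iff hl, ← headD_eq_getD]; exact hpos
    have hc1 := corner_last hl hcpos
    have hc2 := corner_first hl hpos
    by_cases hne : colLen l (l.headD 0 - 1) - 1 = colLen l 0 - 1
    · -- a rectangle
      have h0 : 0 < colLen l (l.headD 0 - 1) := by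
        rw [lt_colLen_iff hl, ← headD_eq_getD]; omega
      have hprod : l.headD 0 * colLen l 0 = n + 1 := by
        rw [← hs, sum_eq_sum_colLen hl]
        rw [← smul_eq_mul, ← card_range (l.headD 0), ← sum_const]
        rw [card_range]
        apply sum_congr rfl
        intro j hj
        rw [mem_range] at hj
        have h1 := colLen_anti l (Nat.zero_le j)
        have h2 := colLen_anti l (show j ≤ l.headD 0 - 1 by omega)
        omega
      obtain ⟨a, ha⟩ : ∃ a, a = l.headD 0 := ⟨_, rfl⟩
      obtain ⟨k, hk⟩ : ∃ k, k = colLen l 0 := ⟨_, rfl⟩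
      rw [← ha, ← hk] at hprod
      rw [← ha] at hh hA
      rw [← hk] at hc hB
      have ha2 : 2 ≤ a := by
        by_contra h
        have : a = 1 := by omega
        rw [this, one_mul] at hprod
        omega
      have hk2 : 2 ≤ k := by
        by_contra h
        have : k = 1 := by omega
        rw [this, mul_one] at hprod
        omega
      have ha3 : a * 2 ≤ n + 1 := by
        have : a * 2 ≤ a * k := Nat.mul_le_mul_left a hk2
        omega
      have hk3 : 2 * k ≤ n + 1 := by
        have : 2 * k ≤ a * k := Nat.mul_le_mul_right k ha2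
        omega
      rw [← hk] at hc1
      -- remove the corner
      obtain ⟨d1, -, hd1⟩ := exists_deg (dec_rm hl hc1) (n := n) (by have := sum_rm hc1; omega)
      have h4 := branch_one hl hs hc1 hd hd1
      have hl1 := dec_rm hl hc1
      have hs1 : (rm l (k - 1)).sum = (n - 1) + 1 := by have := sum_rm hc1; omega
      have hlen := lt_length_of_getD hc1
      have e1 : l.getD (k - 1) 0 = a := by
        have h5 := (lt_colLen_iff hl (k - 1) (a - 1)).1 (by rw [ha]; omega)
        have h6 := getD_le_headD hl (k - 1)
        omega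
      have e2 : l.getD (k - 2) 0 = a := by
        have h5 := (lt_colLen_iff hl (k - 2) (a - 1)).1 (by rw [ha]; omega)
        have h6 := getD_le_headD hl (k - 2)
        omega
      have e3 : l.getD k 0 = 0 := by
        have : ¬ 0 < l.getD k 0 := by rw [getD_pos_iff hl]; omega
        omega
      have hc3 : (rm l (k - 1)).getD ((k - 2) + 1) 0 < (rm l (k - 1)).getD (k - 2) 0 := by
        rw [getD_rm hlen, getD_rm hlen, if_pos (by omega), if_neg (by omega), e1, e2]
        omega
      have hc4 : (rm l (k - 1)).getD ((k - 1) + 1) 0 < (rm l (k - 1)).getD (k - 1) 0 := by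
        rw [getD_rm hlen, getD_rm hlen, if_neg (by omega), if_pos rfl, e1, show k - 1 + 1 = k by omega, e3]
        omega
      obtain ⟨d2, -, hd2⟩ := exists_deg (dec_rm hl1 hc3) (n := n - 1) (by have := sum_rm hc3; omega)
      obtain ⟨d3, -, hd3⟩ := exists_deg (dec_rm hl1 hc4) (n := n - 1) (by have := sum_rm hc4; omega)
      have h5 := branch_two hl1 hs1 (i := k - 2) (k := k - 1) (by omega) hc3 hc4
        (by rw [hd1, show n - 1 + 1 = n by omega]) hd2 hd3
      have hhr : (rm l (k - 1)).headD 0 ≤ a := by rw [ha]; exact headD_rm_le hlen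
      have hcr : colLen (rm l (k - 1)) 0 ≤ k := by
        have := colLen_rm_le hl hc1 0
        omega
      have g1 := headD_rm_le (lt_length_of_getD hc3)
      have g2 := headD_rm_le (lt_length_of_getD hc4)
      have g3 := colLen_rm_le hl1 hc3 0
      have g4 := colLen_rm_le hl1 hc4 0
      have h6 := ih2 _ d2 (dec_rm hl1 hc3) (by have := sum_rm hc3; omega) hd2 (by omega) (by omega)
      have h7 := ih2 _ d3 (dec_rm hl1 hc4) (by have := sum_rm hc4; omega) hd3 (by omega) (by omega)
      omega
    · -- two corners
      obtain ⟨d1, -, hd1⟩ := exists_deg (dec_rm hl hc1) (n := n) (by have := sum_rm hc1; omega)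
      obtain ⟨d2, -, hd2⟩ := exists_deg (dec_rm hl hc2) (n := n) (by have := sum_rm hc2; omega)
      have h4 := branch_two hl hs (Ne.symm hne) hc1 hc2 hd hd1 hd2
      have g1 := headD_rm_le (lt_length_of_getD hc1)
      have g2 := headD_rm_le (lt_length_of_getD hc2)
      have g3 := colLen_rm_le hl hc1 0
      have g4 := colLen_rm_le hl hc2 0
      have h5 := ih1 _ d1 (dec_rm hl hc1) (by have := sum_rm hc1; omega) hd1 (by omega) (by omega)
      have h6 := ih1 _ d2 (dec_rm hl hc2) (by have := sum_rm hc2; omega) hd2 (by omega) (by omega)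
      omega

end Cfsg.Agent.H789.CdSn
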