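import Cfsg.Agent.H789.CdSn.Lev

/-!
# The table of lower bounds and a closed form (helper789, for S4906)

* `Good n m D` : the list `D` consists of lower bounds for the depths `m, m + 1, ...` for `n`;
* `good_tab` : the table from `n = 20`;
* `LB_choose` : `C(n - m, m)` is a lower bound for the depth `m ≤ 9` and `45 ≤ n`.
-/

set_option autoImplicit false
set_option linter.unusedSectionVars false

namespace Cfsg.Agent.H789.CdSn

open Finset Cfsg.Agent.H704

/-- lower bounds for the depths `m, m + 1, ...` -/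
def Good (n m : ℕ) (D : List ℕ) : Prop := ∀ i, LB n (m + i) (D.getD i 1)

theorem Good.nil (n m : ℕ) : Good n m [] := fun _ => LB.one _ _

theorem Good.cons {n m x : ℕ} {D : List ℕ} (h : LB n m x) (hD : Good n (m + 1) D) : Good n m (x :: D) := by
  intro i
  cases i with
  | zero => simpa using h
  | succ i =>
    have := hD i
    rw [List.getD_cons_succ]
    rwa [show m + (i + 1) = m + 1 + i by omega]

theorem Good.head {n m x : ℕ} {D : List ℕ} (h : Good n m (x :: D)) : LB n m x := by
  have := h 0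
  simpa using this

theorem Good.tail {n m x : ℕ} {D : List ℕ} (h : Good n m (x :: D)) : Good n (m + 1) D := by
  intro i
  have := h (i + 1)
  rw [List.getD_cons_succ] at this
  rwa [show m + 1 + i = m + (i + 1) by omega]

/-- the next line of the table -/
def nxtL (n : ℕ) : ℕ → ℕ → ℕ → List ℕ → List ℕ → List ℕ
  | m, e, c, x :: Dc, y :: Dp =>
    (if 2 * m + 3 ≤ n then min (x + c) (min (2 * x) (2 * y)) else e) ::
      nxtL n (m + 1) (if 2 * m + 3 ≤ n then min (x + c) (min (2 * x) (2 * y)) else e) x Dc Dp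
  | _, _, _, _, _ => []

theorem good_nxtL {n : ℕ} : ∀ (Dc Dp : List ℕ) (m e c : ℕ), Good n (m + 1) Dc → Good (n - 1) (m + 1) Dp → LB n m c →
    LB (n + 1) m e → Good (n + 1) (m + 1) (nxtL n (m + 1) e c Dc Dp) := by
  intro Dc
  induction Dc with
  | nil => intro Dp m e c _ _ _ _; exact Good.nil _ _
  | cons x Dc ih =>
    intro Dp m e c h1 h2 h3 h4
    cases Dp with
    | nil => exact Good.nil _ _
    | cons y Dp =>
      rw [nxtL]
      have h5 : LB (n + 1) (m + 1) (if 2 * (m + 1) + 3 ≤ n then min (x + c) (min (2 * x) (2 * y)) else e) := by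
        split_ifs with h
        · exact step (by omega) h h1.head h2.head (by rw [Nat.add_sub_cancel]; exact h3) (min_le_left _ _)
            ((min_le_right _ _).trans (min_le_left _ _)) ((min_le_right _ _).trans (min_le_right _ _))
        · exact h4.mono (by omega) le_rfl
      exact Good.cons h5 (ih Dp (m + 1) _ x h1.tail h2.tail h1.head h5)

/-- the next line of the table -/
def nx (n : ℕ) (Dp Dc : List ℕ) : List ℕ := 1 :: nxtL n 1 1 (Dc.headD 1) Dc.tail Dp.tail

theorem good_nx {n : ℕ} {Dp Dc : List ℕ} (h1 : Good n 0 Dc) (h2 : Good (n - 1) 0 Dp) : Good (n + 1) 0 (nx n Dp Dc) := by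
  refine Good.cons (LB.one _ _) ?_
  refine good_nxtL _ _ 0 1 _ ?_ ?_ ?_ (LB.one _ _)
  · cases Dc with
    | nil => exact Good.nil _ _
    | cons x Dc => exact h1.tail
  · cases Dp with
    | nil => exact Good.nil _ _
    | cons x Dp => exact h2.tail
  · cases Dc with
    | nil => exact LB.one _ _
    | cons x Dc => exact h1.head

/-- iterate -/
def it : ℕ → ℕ → List ℕ → List ℕ → List ℕ × List ℕ
  | 0, _, Dp, Dc => (Dp, Dc)
  | f + 1, n, Dp, Dc => it f (n + 1) Dc (nx n Dp Dc)

theorem good_it : ∀ (f n : ℕ) (Dp Dc : List ℕ), 1 ≤ n → Good (n - 1) 0 Dp → Good n 0 Dc →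
    Good (n + f - 1) 0 (it f n Dp Dc).1 ∧ Good (n + f) 0 (it f n Dp Dc).2 := by
  intro f
  induction f with
  | zero => intro n Dp Dc _ h1 h2; exact ⟨h1, h2⟩
  | succ f ih =>
    intro n Dp Dc hn h1 h2
    have := ih (n + 1) Dc (nx n Dp Dc) (by omega) (by rwa [Nat.add_sub_cancel]) (good_nx h2 h1)
    rw [it]
    rw [show n + (f + 1) - 1 = n + 1 + f - 1 by omega, show n + (f + 1) = n + 1 + f by omega]
    exact this

/-- the check of a line of the table -/
def baseChk (n F : ℕ) (D : List ℕ) (l : List ℕ) (H : ℕ) : Bool :=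
  (D.take (n + 1 - max (l.headD 0) l.length)).all fun b => Nat.ble (b * H) F

theorem good_of_chk {n F : ℕ} {D : List ℕ} (hF : n.factorial = F) (h : go (baseChk n F D) (n + 1) n 1 [] 1 = true) :
    Good n 0 D := by
  intro i l d hl hs hd h1 h2
  have h3 := check_of_isPart h (isPart_filter hl hs)
  rw [hookProd_filter hl, baseChk, headD_filter_pos hl, length_filter_pos, List.all_eq_true] at h3
  by_cases hi : i < D.length
  · have h4 : D.getD i 1 = D[i] := by
      rw [List.getD_eq_getElem?_getD, List.getElem?_eq_getElem hi, Option.getD_some]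
    rw [h4]
    have h5 : D[i] ∈ D.take (n + 1 - max (l.headD 0) (colLen l 0)) := by
      rw [List.mem_take_iff_getElem]
      refine ⟨i, ?_, rfl⟩
      rw [lt_min_iff]
      refine ⟨?_, hi⟩
      have : max (l.headD 0) (colLen l 0) + i ≤ n := by
        rcases max_cases (l.headD 0) (colLen l 0) with h | h <;> omega
      omega
    have h6 := h3 _ h5
    rw [Nat.ble_eq, ← hF, ← hd] at h6
    exact Nat.le_of_mul_le_mul_right h6 (hookProd_pos hl)
  · rw [List.getD_eq_default _ _ (by omega)]
    exact pos_of_deg hd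

/-- the line `20` -/
def D20 : List ℕ := [1, 19, 170, 950, 3705, 10659, 16796, 16796, 16796, 16796]

/-- the line `21` -/
def D21 : List ℕ := [1, 20, 189, 1120, 4655, 14364, 33915, 58786, 58786, 58786]

theorem good20 : Good 20 0 D20 := by
  refine good_of_chk (F := 2432902008176640000) (by decide +kernel) ?_
  decide +kernel

theorem good21 : Good 21 0 D21 := by
  refine good_of_chk (F := 51090942171709440000) (by decide +kernel) ?_
  decide +kernel

/-- the table -/
def tab (n : ℕ) : List ℕ := (it (n - 21) 21 D20 D21).2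

theorem good_tab {n : ℕ} (hn : 21 ≤ n) : Good n 0 (tab n) := by
  have := (good_it (n - 21) 21 D20 D21 (by norm_num) good20 good21).2
  rwa [show 21 + (n - 21) = n by omega] at this

theorem LB_tab {n m : ℕ} (hn : 21 ≤ n) : LB n m ((tab n).getD m 1) := by
  have := good_tab hn m
  rwa [zero_add] at this

/-! ### The closed form -/

theorem choose_succ_le {x m : ℕ} (hm : 1 ≤ m) (h : 4 * m ≤ x) : (x + 1).choose m ≤ 2 * (x - 1).choose m := by
  obtain ⟨y, rfl⟩ : ∃ y, x = y + 1 := ⟨x - 1, by omega⟩
  rw [Nat.add_sub_cancel]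
  obtain ⟨k, rfl⟩ : ∃ k, m = k + 1 := ⟨m - 1, by omega⟩
  have h1 := Nat.choose_mul_succ_eq (y + 1) (k + 1)
  have h2 := Nat.choose_mul_succ_eq y (k + 1)
  -- `C(y+1) * (y+2) = C(y+2) * (y + 2 - (k+1))`, `C(y) * (y + 1) = C(y+1) * (y + 1 - (k+1))`
  obtain ⟨c, hc⟩ : ∃ c, c = y + 1 - (k + 1) := ⟨_, rfl⟩
  have hc1 : y + 1 + 1 - (k + 1) = c + 1 := by omega
  have hy : y = c + k := by omega
  rw [hc1] at h1
  rw [← hc] at h2
  have h3 : (y + 1 + 1).choose (k + 1) * ((c + 1) * c) ≤ 2 * y.choose (k + 1) * ((c + 1) * c) := by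
    calc (y + 1 + 1).choose (k + 1) * ((c + 1) * c) = ((y + 1 + 1).choose (k + 1) * (c + 1)) * c := by ring
      _ = ((y + 1).choose (k + 1) * (y + 1 + 1)) * c := by rw [h1]
      _ = ((y + 1).choose (k + 1) * c) * (y + 1 + 1) := by ring
      _ = y.choose (k + 1) * ((y + 1) * (y + 1 + 1)) := by rw [← h2]; ring
      _ ≤ y.choose (k + 1) * (2 * ((c + 1) * c)) := by
        apply Nat.mul_le_mul_left
        subst hy
        have h4 : 3 * k + 2 ≤ c := by omega
        nlinarith
      _ = _ := by ring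
  refine Nat.le_of_mul_le_mul_right h3 ?_
  have : 0 < c := by omega
  positivity

/-- propagation of the closed form -/
theorem LB_choose_step {m n₀ : ℕ} (hn : 5 * m + 3 ≤ n₀) (h0 : LB n₀ m ((n₀ - m).choose m))
    (h1 : LB (n₀ + 1) m ((n₀ + 1 - m).choose m)) (ih : ∀ n, n₀ ≤ n → LB n (m - 1) ((n - (m - 1)).choose (m - 1)))
    (hm : 1 ≤ m) {n : ℕ} (h : n₀ ≤ n) : LB n m ((n - m).choose m) := by
  have key : ∀ k, LB (n₀ + k) m ((n₀ + k - m).choose m) ∧ LB (n₀ + k + 1) m ((n₀ + k + 1 - m).choose m) := by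
    intro k
    induction k with
    | zero => exact ⟨h0, h1⟩
    | succ k ihk =>
      refine ⟨ihk.2, ?_⟩
      rw [show n₀ + (k + 1) = n₀ + k + 1 by omega]
      obtain ⟨x, hx⟩ : ∃ x, x = n₀ + k + 1 - m := ⟨_, rfl⟩
      have e1 : n₀ + k + 1 + 1 - m = x + 1 := by omega
      have e2 : n₀ + k - m = x - 1 := by omega
      have hx4 : 4 * m ≤ x := by omega
      rw [e1]
      have i1 := ihk.2
      have i0 := ihk.1
      rw [← hx] at i1
      rw [e2] at i0
      refine step (B1 := x.choose m) (B1' := (x - 1).choose m) (B0 := (n₀ + k + 1 - (m - 1)).choose (m - 1)) hm (by omega) i1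
        (by rwa [Nat.add_sub_cancel]) (ih _ (by omega)) ?_ ?_ (choose_succ_le hm hx4)
      · obtain ⟨j, rfl⟩ : ∃ j, m = j + 1 := ⟨m - 1, by omega⟩
        rw [Nat.add_sub_cancel, Nat.choose_succ_succ' x j, add_comm]
        apply Nat.add_le_add_left
        exact Nat.choose_le_choose j (by omega)
      · refine (choose_succ_le hm hx4).trans ?_
        exact Nat.mul_le_mul_left 2 (Nat.choose_le_choose m (by omega))
  have := (key (n - n₀)).1
  rwa [show n₀ + (n - n₀) = n by omega] at this

/-- the base -/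
def baseLB : Bool := (List.range 10).all fun m =>
  Nat.ble ((48 - m).choose m) ((tab 48).getD m 1) && Nat.ble ((49 - m).choose m) ((tab 49).getD m 1)

theorem baseLB_true : baseLB = true := by decide +kernel

/-- **the closed form** -/
theorem LB_choose : ∀ {m n : ℕ}, m ≤ 9 → 48 ≤ n → LB n m ((n - m).choose m) := by
  intro m
  induction m with
  | zero => intro n _ _; rw [Nat.choose_zero_right]; exact LB.one _ _
  | succ m ih =>
    intro n hm hn
    have hb := baseLB_true
    unfold baseLB at hb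
    rw [List.all_eq_true] at hb
    have h1 := hb (m + 1) (by rw [List.mem_range]; omega)
    rw [Bool.and_eq_true, Nat.ble_eq, Nat.ble_eq] at h1
    exact LB_choose_step (n₀ := 48) (by omega) ((LB_tab (by norm_num)).mono le_rfl h1.1)
      ((LB_tab (by norm_num)).mono le_rfl h1.2) (fun k hk => by
        rw [Nat.add_sub_cancel]; exact ih (by omega) hk) (by omega) hn

end Cfsg.Agent.H789.CdSn
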